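import Cfsg.Agent.H195.RC.MixTwo
import Cfsg.Agent.H188.RC.InvFin
import Cfsg.Agent.H338.RC.DeadSU
import Cfsg.Agent.H338.RC.DeadSL

/-!
# S3510, triality of type iii: the mixed case (helper195)

`mix_lin` (helper579), `zzW` (helper393), `ZN4`, `kl_lin` (helper253, helper579), `det_mult` (helper531), `dead_inv` (helper188),
`dead_sl3`, `dead_su3` (helper338), `dead_long`.
-/

set_option autoImplicit false
open Cfsg

namespace Cfsg.Agent.H195.RC

open Module QuadraticMap MulAction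
open Cfsg.Agent.LieClassical.OrthCore Cfsg.Agent.LieClassical.OrthTrans
open Cfsg.Agent.LieClassical.OrthSimple Cfsg.Agent.ClassicalGeometry.OrthSemi
open Cfsg.Agent.ClassicalGeometry.OrthAut1 Cfsg.Agent.H106.RC Cfsg.Agent.H93.RC Cfsg.Agent.H566.RC
open Cfsg.Agent.LieClassical.QuadForms Cfsg.Agent.ClassicalGeometry.TrialityOct
open Cfsg.Agent.ClassicalGeometry.Triality Cfsg.Agent.ClassicalGeometry.TrialitySpaces
open Cfsg.Agent.H198.TriBase Cfsg.Agent.H198.TriAut Cfsg.Agent.H206.Balance Cfsg.Agent.H198.TriDia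
open Cfsg.Agent.H198.TwComp Cfsg.Agent.H198 Cfsg.Agent.H864.RC

variable {F : Type} [Field F] {G Ω ι : Type} [Group G] [MulAction G Ω] {N : Subgroup G} {hG : Good (plusForm 4 F)}
  {κ : P8 F →* G} {s : F ≃+* F} {x₁ : G} {x : ι → G} {r : ι → ℕ} {g : ι → (V8 F ≃ₗ[F] V8 F)}

/-- **MIXED**: a member of order `p = char F` and a member of another order -/
theorem dead_mixed [Finite F] [Finite G] [Finite ι] [Nonempty Ω] {p : ℕ} [CharP F p]
    (h : T3 hG N κ s Ω x₁ x r g) (hIH : IH (Nat.card N)) (hN : NoN Ω N) (i₀ j₀ : ι) (hi : r i₀ = p)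
    (hj : r j₀ ≠ p) : False := by
  have hp : p.Prime := by rw [← hi]; exact h.prime i₀
  by_cases h2 : ∀ i, r i ≠ p → r i ≠ 2
  · rcases Mix.alternatives h hN i₀ j₀ hi hj h2 with ⟨h3, h4⟩ | ⟨i, hi2, h3 | h3⟩
    · exact dead_long h i₀ hi h3 h4
    · obtain ⟨a, b, ha, hb, haa, hbb, hab, hab1, k1, k2, k3, k4⟩ := h3
      exact H338.RC.dead_sl3 h hIH hN i hi2 ha hb haa hbb hab hab1 k1 k2 k3 k4
    · obtain ⟨W, τ, τ', hW, hWn, hτ, k1, k2, k3, k4⟩ := h3
      exact H338.RC.dead_su3 h hIH hN i hi2 W hW hWn τ τ' hτ k1 k2 k3 k4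
  · push Not at h2
    obtain ⟨i, h3, h4⟩ := h2
    refine H188.RC.Inv.dead_inv h hIH hN ?_ i h4
    intro h5
    apply h3
    rw [h4]
    have h6 : ((2 : ℕ) : F) = 0 := by exact_mod_cast h5
    rw [CharP.cast_eq_zero_iff F p] at h6
    exact ((Nat.prime_dvd_prime_iff_eq hp Nat.prime_two).1 h6).symm

end Cfsg.Agent.H195.RC
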